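import Mathlib
import Cfsg.Agent.Lib.Helper58.UPair.Defs
import Cfsg.Agent.Lib.Helper45.HermGU

/-!
# UPair (S5984), package [ISOB]
-/

set_option autoImplicit false
open scoped MatrixGroups Matrix

namespace Cfsg.Agent.Lib.Helper65.UPair

open Cfsg.Agent.Lib.Helper58.UPair Cfsg.Agent.Lib.Helper45

universe u

/-- **[ISOB]** -/
theorem pkgIsoB : PkgIsoOfBases.{u} := by
  intro F _ _ q n m D D' b b' hF hD hD' hb hb'
  classical
  have hq : q ≠ 0 := by have := two_le_q hF; omega
  obtain ⟨hb0, hb1, hbd⟩ := hb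
  obtain ⟨hb0', hb1', hbd'⟩ := hb'
  -- the Gram matrix of an adapted basis
  have gram_aux : ∀ (D : Fin 2 → Submodule F (Fin n → F))
      (b : Module.Basis (Fin m ⊕ Fin m) F (Fin n → F)),
      IsTSPair n m F q D → (∀ i, b (Sum.inl i) ∈ D 0) → (∀ i, b (Sum.inr i) ∈ D 1) →
      (∀ i j, Cfsg.hermForm n F q (b (Sum.inl i)) (b (Sum.inr j)) = if i = j then 1 else 0) →
      ∀ s t : Fin m ⊕ Fin m, Cfsg.hermForm n F q (b s) (b t) =
        match s, t with
        | Sum.inl _, Sum.inl _ => 0
        | Sum.inl i, Sum.inr j => if i = j then 1 else 0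
        | Sum.inr j, Sum.inl i => if i = j then 1 else 0
        | Sum.inr _, Sum.inr _ => 0 := by
    intro D b hD h0 h1 hd s t
    rcases s with i | i <;> rcases t with j | j
    · exact hD.2 0 _ (h0 i) _ (h0 j)
    · exact hd i j
    · rw [← herm_conj hF, hd j i]; split_ifs with hji <;> simp [hq, hji]
    · exact hD.2 1 _ (h1 i) _ (h1 j)
  have gram : ∀ s t, Cfsg.hermForm n F q (b' s) (b' t) = Cfsg.hermForm n F q (b s) (b t) := by
    intro s t
    rw [gram_aux D b hD hb0 hb1 hbd, gram_aux D' b' hD' hb0' hb1' hbd']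
  let e : (Fin n → F) ≃ₗ[F] (Fin n → F) := b.equiv b' (Equiv.refl _)
  have he : ∀ s, e (b s) = b' s := fun s => by simp [e]
  let L : (Fin n → F) → ((Fin n → F) →ₗ[F] F) := fun w =>
    { toFun := fun u => Cfsg.hermForm n F q u w
      map_add' := fun u u' => herm_add_left n u u' w
      map_smul' := fun c u => by simpa using herm_smul_left n c u w }
  have lemA : ∀ w w' : Fin n → F,
      (∀ s, Cfsg.hermForm n F q (b' s) w' = Cfsg.hermForm n F q (b s) w) →
      ∀ v, Cfsg.hermForm n F q (e v) w' = Cfsg.hermForm n F q v w := by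
    intro w w' h v
    have h3 : (L w').comp (e : (Fin n → F) →ₗ[F] (Fin n → F)) = L w := b.ext (fun s => by
      simp only [LinearMap.comp_apply, LinearEquiv.coe_coe, he]
      exact h s)
    exact LinearMap.congr_fun h3 v
  have h1 : ∀ v s, Cfsg.hermForm n F q (e v) (b' s) = Cfsg.hermForm n F q v (b s) :=
    fun v s => lemA (b s) (b' s) (fun t => gram t s) v
  have h2 : ∀ s v, Cfsg.hermForm n F q (b' s) (e v) = Cfsg.hermForm n F q (b s) v := by
    intro s v
    rw [← herm_conj hF, h1, herm_conj hF]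
  have hiso : ∀ u v, Cfsg.hermForm n F q (e u) (e v) = Cfsg.hermForm n F q u v :=
    fun u v => lemA v (e v) (fun s => h2 s v) u
  let M : Matrix (Fin n) (Fin n) F := LinearMap.toMatrix' (e : (Fin n → F) →ₗ[F] (Fin n → F))
  have hM : ∀ v, M *ᵥ v = e v := by
    intro v
    rw [← Matrix.toLin'_apply, Matrix.toLin'_toMatrix']
    rfl
  have hMiso : IsHermIso n F q M := by
    intro u v
    rw [hM, hM]
    exact hiso u v
  let g : GL (Fin n) F := (isHermIso_isUnit hF hMiso).unit
  have hg : (g : Matrix (Fin n) (Fin n) F) = M := IsUnit.unit_spec _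
  refine ⟨g, ?_, ?_⟩
  · show ∀ u v, Cfsg.hermForm n F q ((g : Matrix (Fin n) (Fin n) F) *ᵥ u)
        ((g : Matrix (Fin n) (Fin n) F) *ᵥ v) = Cfsg.hermForm n F q u v
    rw [hg]
    exact hMiso
  · have hlin : Matrix.toLin' (g : Matrix (Fin n) (Fin n) F) =
        (e : (Fin n → F) →ₗ[F] (Fin n → F)) := by
      rw [hg]
      exact Matrix.toLin'_toMatrix' _
    rw [hlin]
    have span_eq : ∀ (D : Submodule F (Fin n → F))
        (b : Module.Basis (Fin m ⊕ Fin m) F (Fin n → F)) (s : Fin m → Fin m ⊕ Fin m),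
        Function.Injective s → Module.finrank F D = m → (∀ i, b (s i) ∈ D) →
        D = Submodule.span F (Set.range (b ∘ s)) := by
      intro D b s hs hfin hmem
      symm
      apply Submodule.eq_of_le_of_finrank_eq
      · rw [Submodule.span_le]
        rintro _ ⟨i, rfl⟩
        exact hmem i
      · rw [finrank_span_eq_card (b.linearIndependent.comp s hs), hfin, Fintype.card_fin]
    have map_eq : ∀ s : Fin m → Fin m ⊕ Fin m,
        (Submodule.span F (Set.range (b ∘ s))).map (e : (Fin n → F) →ₗ[F] (Fin n → F)) =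
          Submodule.span F (Set.range (b' ∘ s)) := by
      intro s
      rw [Submodule.map_span, ← Set.range_comp]
      congr 2
      funext i
      simp [he]
    rw [Fin.forall_fin_two]
    constructor
    · rw [span_eq (D 0) b Sum.inl Sum.inl_injective (hD.1.finrank_eq 0) hb0, map_eq,
        ← span_eq (D' 0) b' Sum.inl Sum.inl_injective (hD'.1.finrank_eq 0) hb0']
    · rw [span_eq (D 1) b Sum.inr Sum.inr_injective (hD.1.finrank_eq 1) hb1, map_eq,
        ← span_eq (D' 1) b' Sum.inr Sum.inr_injective (hD'.1.finrank_eq 1) hb1']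

end Cfsg.Agent.Lib.Helper65.UPair
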